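import Mathlib
import Cfsg.Agent.Lib.Piwek1075.Defs

set_option autoImplicit false
set_option maxRecDepth 1000000

namespace Cfsg.Agent.Lib.Piwek1075

open Cfsg.Agent.Lib.PiwekK Matrix in
theorem hLB : ∀ k : Fin 27, ∀ i : Fin 56, lm (ml.getD (Nat.add 27 k.val) 0) *ᵥ S i = Sn (dig (wc.getD (Nat.add 27 k.val) 0) i.val) := by decide +kernel

end Cfsg.Agent.Lib.Piwek1075
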