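import Mathlib
import Cfsg.Agent.Lib.Piwek1075.Defs

set_option autoImplicit false
set_option maxRecDepth 1000000

namespace Cfsg.Agent.Lib.Piwek1075

open Cfsg.Lie in
theorem hMV : ∀ t u v : R, chevG2.wordMat R (reeWordV 1 t u v) = lm (ml.getD (Nat.add 27 (idx3 t u v)) 0) := by decide +kernel

end Cfsg.Agent.Lib.Piwek1075
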